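import Cfsg.Agent.H4.H44.A

/-! No simple group has Sylow `2`-subgroup `ℤ/4 × ℤ/4` with self-centralising socle. -/

set_option autoImplicit false
set_option linter.unusedSectionVars false
set_option linter.unusedVariables false
set_option linter.unusedSimpArgs false

namespace Cfsg.Agent.H4.H44

open Cfsg Subgroup BS

universe u

variable {G : Type u} [Group G]

theorem mem_of_sq {K : Subgroup G} (hK : Odd K.index) {n : G} (hn : n ∈ normalizer (K : Set G))
    (h2 : n * n ∈ K) : n ∈ K := by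
  obtain ⟨r, hr⟩ := hK.of_dvd_nat (relIndex_dvd_index_of_le (le_normalizer (H := K)))
  have := (K.subgroupOf (normalizer (K : Set G))).pow_index_mem ⟨n, hn⟩
  rw [mem_subgroupOf, show (K.subgroupOf (normalizer (K : Set G))).index = 2 * r + 1 from hr,
    SubgroupClass.coe_pow, pow_succ, pow_mul, sq] at this
  exact (K.mul_mem_cancel_left (K.pow_mem h2 r)).1 this

theorem exists_dt [Fintype G] {σ : A →* G} {h : G} (hσ : Function.Injective σ) (odd : Odd σ.range.index)
    (h1 : h * σ (el 1 0) * h⁻¹ = σ (el 0 1)) (h2 : h * σ (el 0 1) * h⁻¹ = σ (el 3 3))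
    (hC : ∀ x, Commute x (σ (el 2 0)) → Commute x (σ (el 0 2)) → x ∈ σ.range) : ∃ π, Dt σ π h := by
  have inj : Function.Injective (sc σ) := fun a b e => hσ (congrArg Subtype.val e)
  have hC' : ∀ x, Commute x (sc σ (el 0 2)) → x ∈ (sc σ).range := fun x hx =>
    (hC x (mem_Cu.1 x.2) (congrArg Subtype.val hx.eq)).imp fun _ => Subtype.ext
  have o : Odd (sc σ).range.index := by
    rw [show (sc σ).range = σ.range.subgroupOf (Cu (σ (el 2 0))) from Subgroup.ext fun x =>
      exists_congr fun _ => Subtype.ext_iff]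
    exact odd.of_dvd_nat (relIndex_dvd_index_of_le (by rintro _ ⟨a, rfl⟩; exact smem σ a))
  let e := MonoidHom.ofInjective inj
  let P : Sylow 2 (Cu (σ (el 2 0))) := ((IsPGroup.of_card (p := 2) (n := 4) (G := A)
    (by simp [Nat.card_prod])).of_equiv e).toSylow (by rwa [← even_iff_two_dvd, Nat.not_even_iff_odd])
  have hP : normalizer ((P : Subgroup (Cu (σ (el 2 0)))) : Set (Cu (σ (el 2 0)))) ≤
      centralizer (P : Set (Cu (σ (el 2 0)))) := fun n hn => by
    have c : ∀ x, Commute x (sc σ (el 2 0)) := fun x => Subtype.ext (mem_Cu.1 x.2).eq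
    obtain ⟨a, ha⟩ : n * sc σ (el 0 2) * n⁻¹ ∈ (sc σ).range := (mem_normalizer_iff.1 hn _).1 ⟨_, rfl⟩
    have k1 : a * a = 1 := inj (by rw [map_mul, ha, conj_mul, ← map_mul, show el 0 2 * el 0 2 = 1 by decide]; simp)
    have k2 : a ≠ 1 := by
      rintro rfl
      rw [map_one, eq_comm, conj_eq_one_iff, map_eq_one_iff _ inj] at ha
      exact absurd ha (by decide)
    have k3 : a ≠ el 2 0 := by
      rintro rfl
      rw [eq_mul_inv_iff_mul_eq, ← (c n).eq, mul_right_inj] at ha
      exact absurd (inj ha) (by decide)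
    have k4 : a = el 0 2 ∨ a = el 2 0 * el 0 2 := by clear * - k1 k2 k3; revert a; decide
    obtain ⟨b, rfl⟩ : n ∈ (sc σ).range := mem_of_sq o hn (hC' _ (by
      rw [commute_iff_eq, ← mul_inv_eq_iff_eq_mul, mul_inv_rev,
        show n * n * sc σ (el 0 2) * (n⁻¹ * n⁻¹) = n * (n * sc σ (el 0 2) * n⁻¹) * n⁻¹ by group, ← ha]
      rcases k4 with rfl | rfl
      · exact ha.symm
      · rw [map_mul, ← conj_mul, ← ha, (c n).eq, mul_inv_cancel_right, ← map_mul]
        exact congrArg _ (by decide)))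
    rintro _ ⟨d, rfl⟩
    exact ((Commute.all _ _).map _).eq
  obtain ⟨r, hr⟩ := o
  have sq : ∀ a : A, (a ^ (2 * r + 1)) ^ (2 * r + 1) = a := fun a => by
    have : ∀ a : A, a ^ 4 = 1 := by decide
    rw [← pow_mul, show (2 * r + 1) * (2 * r + 1) = 4 * (r * r + r) + 1 by ring, pow_succ, pow_mul, this,
      one_pow, one_mul]
  have sec : ∀ a, e.symm (MonoidHom.transferSylow P hP (sc σ a)) ^ (2 * r + 1) = a := fun a => by
    rw [MonoidHom.transferSylow_eq_pow P hP _ ⟨a, rfl⟩, ← sq a]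
    refine congrArg (· ^ (2 * r + 1)) (e.symm_apply_eq.2 (Subtype.ext ?_))
    change sc σ (_ ^ _) ^ (sc σ).range.index = sc σ _
    rw [sq, hr, map_pow]
  refine ⟨(powMonoidHom (2 * r + 1)).comp (e.symm.toMonoidHom.comp (MonoidHom.transferSylow P hP)),
    sec, ?_, fun x hx hx' => ?_, h1, h2⟩
  · have := MonoidHom.not_dvd_card_ker_transferSylow P hP
    rw [← even_iff_two_dvd, Nat.not_even_iff_odd] at this
    convert this using 3
    ext x
    have key : ∀ y, e.symm y ^ (2 * r + 1) = 1 ↔ y = 1 := fun y =>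
      ⟨fun k => e.symm.injective (by rw [← sq (e.symm y), k, one_pow, map_one]),
        fun k => by rw [k, map_one, one_pow]⟩
    exact key _
  · obtain ⟨a, rfl⟩ := hC' x hx'
    rw [(sec a).symm.trans hx, map_one]

theorem h44' [Finite G] [IsSimpleGroup G] {σ : A →* G} {h : G} (hσ : Function.Injective σ)
    (odd : Odd σ.range.index) (h1 : h * σ (el 1 0) * h⁻¹ = σ (el 0 1))
    (h2 : h * σ (el 0 1) * h⁻¹ = σ (el 3 3))
    (hC : ∀ x, Commute x (σ (el 2 0)) → Commute x (σ (el 0 2)) → x ∈ σ.range) : False := by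
  have := Fintype.ofFinite G
  obtain ⟨π, k⟩ := exists_dt hσ odd h1 h2 hC
  obtain ⟨N, hN, e⟩ := k.tg
  rcases hN.eq_bot_or_eq_top with rfl | rfl
  · rcases e with e | e
    · exact k.t1 e.2
    · have := e.2 h
      rw [k.rot, ← map_mul, mem_bot, map_eq_one_iff _ hσ] at this
      exact absurd this (by decide)
  · simp at e

/-- there is no simple group with Sylow `2`-subgroup `T = ℤ/4 × ℤ/4` and `C(Ω₁ T) = T` -/
theorem h44 [Finite G] [IsSimpleGroup G] {g1 g2 h : G} (c : Commute g1 g2) (o1 : g1 ^ 4 = 1)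
    (n1 : g1 * g1 ≠ 1) (n2 : g1 * g1 ≠ g2 * g2) (odd : Odd (closure {g1, g2}).index)
    (h1 : h * g1 * h⁻¹ = g2) (h2 : h * g2 * h⁻¹ = (g1 * g2)⁻¹)
    (hC : ∀ x, Commute x (g1 * g1) → Commute x (g2 * g2) → x ∈ closure {g1, g2}) : False := by
  have o2 : g2 ^ 4 = 1 := by rw [← h1, conj_pow, o1]; simp
  let σ : A →* G := (cyc g1 o1).noncommCoprod (cyc g2 o2) fun _ _ => c.pow_pow _ _
  have hs : ∀ i j, σ (el i j) = g1 ^ i.val * g2 ^ j.val := fun _ _ => rfl
  have hr : σ.range = closure {g1, g2} := le_antisymm (by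
    rintro _ ⟨a, rfl⟩
    exact mul_mem (pow_mem (subset_closure (by simp)) _) (pow_mem (subset_closure (by simp)) _))
    ((closure_le _).2 (by
      rintro _ (rfl | rfl)
      · exact ⟨el 1 0, by simp [hs, v0, v1]⟩
      · exact ⟨el 0 1, by simp [hs, v0, v1]⟩))
  have s1 : σ (el 2 0) = g1 * g1 := by simp [hs, v0, v2, sq]
  have s2 : σ (el 0 2) = g2 * g2 := by simp [hs, v0, v2, sq]
  refine h44' (σ := σ) (h := h) ((injective_iff_map_eq_one σ).2 fun a ha => by_contra fun k => ?_)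
    (hr ▸ odd) (by simpa [hs, v0, v1] using h1) ?_ (by rw [s1, s2, hr]; exact hC)
  · obtain ⟨m, e | e | e⟩ : ∃ m : Fin 3, a ^ m.val = el 2 0 ∨ a ^ m.val = el 0 2 ∨
        a ^ m.val = el 2 0 * (el 0 2)⁻¹ := by clear * - k; revert a; decide
    all_goals replace e := congrArg σ e; rw [map_pow, ha, one_pow] at e
    · exact n1 (s1 ▸ e.symm)
    · rw [s2, ← h1, conj_mul, eq_comm, conj_eq_one_iff] at e
      exact n1 e
    · rw [map_mul, map_inv, s1, s2, eq_comm, mul_inv_eq_one] at e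
      exact n2 e
  · rw [show el 3 3 = (el 1 1)⁻¹ from rfl, map_inv]
    simpa [hs, v0, v1] using h2

end Cfsg.Agent.H4.H44
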