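import Cfsg.Agent.H4.BS3

/-! No simple group has Sylow `2`-subgroup `ℤ/4 × ℤ/4` with self-centralising socle: characters. -/

set_option autoImplicit false
set_option linter.unusedSectionVars false
set_option linter.unusedVariables false
set_option linter.unusedSimpArgs false

namespace Cfsg.Agent.H4.H44

open Cfsg Subgroup Finset H1 H2 CA BS
open scoped ComplexConjugate Classical

universe u

/-- `ℤ/4 × ℤ/4` -/
abbrev A := Multiplicative (ZMod 4) × Multiplicative (ZMod 4)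

/-- elements -/
def el (i j : ZMod 4) : A := (Multiplicative.ofAdd i, Multiplicative.ofAdd j)

theorem zm4 : ∀ i : ZMod 4, i = 0 ∨ i = 1 ∨ i = 2 ∨ i = 3 := by decide

theorem sumA (F : A → ℂ) : ∑ a, F a =
    F (el 0 0) + F (el 0 1) + F (el 0 2) + F (el 0 3) + (F (el 1 0) + F (el 1 1) + F (el 1 2) + F (el 1 3)) +
    (F (el 2 0) + F (el 2 1) + F (el 2 2) + F (el 2 3)) +
    (F (el 3 0) + F (el 3 1) + F (el 3 2) + F (el 3 3)) := by
  have : ∀ f : Multiplicative (ZMod 4) → ℂ, ∑ k, f k = f (.ofAdd 0) + f (.ofAdd 1) + f (.ofAdd 2) +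
      f (.ofAdd 3) := fun f => by
    rw [← Multiplicative.ofAdd.sum_comp]; exact Fin.sum_univ_four fun k : ZMod 4 => f (.ofAdd k)
  rw [Fintype.sum_prod_type, this]
  simp only [this, el]

theorem cardA : (Nat.card A : ℂ) = 16 := by simp [Nat.card_prod]

/-- the unit `i` -/
noncomputable def io : ℂˣ := Units.mk0 Complex.I Complex.I_ne_zero

theorem io4 (j : ℕ) : (io ^ j) ^ 4 = 1 := by
  rw [← pow_mul, mul_comm, pow_mul, show io ^ 4 = 1 from Units.ext (by simp [io]), one_pow]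

/-- linear characters -/
noncomputable def L (j k : ℕ) : A →* ℂˣ := (cyc _ (io4 j)).coprod (cyc _ (io4 k))

theorem L_el (j k : ℕ) (i l : ZMod 4) :
    (L j k (el i l) : ℂ) = (Complex.I ^ j) ^ i.val * (Complex.I ^ k) ^ l.val := by
  simp [L, el, cyc, io]

theorem v0 : (0 : ZMod 4).val = 0 := rfl
theorem v1 : (1 : ZMod 4).val = 1 := rfl
theorem v2 : (2 : ZMod 4).val = 2 := rfl
theorem v3 : (3 : ZMod 4).val = 3 := rfl
theorem I3 : Complex.I ^ 3 = -Complex.I := by simp [pow_succ]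
theorem m2 : (-1 : ℂ) ^ 2 = 1 := by norm_num
theorem m3 : (-1 : ℂ) ^ 3 = -1 := by norm_num

/-- the functions supported on the elements with square `t` -/
noncomputable def f (j : ℕ) (a : A) : ℂ := (1 - L 2 0 a) * (1 + L 0 2 a) * L 0 j a

theorem f_eq (j : ℕ) (a : A) : f j a = L 0 j a - L 2 j a + L 0 (j + 2) a - L 2 (j + 2) a := by
  have := L_el
  change f j (el a.1.toAdd a.2.toAdd) = L 0 j (el a.1.toAdd a.2.toAdd) - L 2 j (el a.1.toAdd a.2.toAdd) +
    L 0 (j + 2) (el a.1.toAdd a.2.toAdd) - L 2 (j + 2) (el a.1.toAdd a.2.toAdd)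
  simp only [f, L_el]
  ring

theorem f_supp {j : ℕ} {a : A} (h : f j a ≠ 0) : a * a = el 2 0 := by
  obtain ⟨i, l, rfl⟩ : ∃ i l, a = el i l := ⟨_, _, rfl⟩
  rcases zm4 i with rfl | rfl | rfl | rfl <;> rcases zm4 l with rfl | rfl | rfl | rfl <;>
    first | decide | simp [f, L_el, v0, v1, v2, v3, m2, m3] at h

section av

variable {G : Type u} [Group G] [Fintype G] {Q : Type*} [Group Q] [Fintype Q]

/-- average over a fibre -/
noncomputable def av (π : G →* Q) (φ : G → ℂ) (a : Q) : ℂ :=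
  (Nat.card π.ker : ℂ)⁻¹ * ∑ x with π x = a, φ x

theorem inner_av {π : G →* Q} (hπ : Function.Surjective π) (F : Q → ℂ) {φ : G → ℂ}
    (hφ : ∀ x, conj (φ x) = φ x) :
    classInner (fun x => F (π x)) φ = (Nat.card Q : ℂ)⁻¹ * ∑ a, F a * av π φ a := by
  have e2 : (Nat.card G : ℂ) = Nat.card π.ker * Nat.card Q := by
    simpa using sum_fiber π hπ fun _ => 1
  rw [classInner, ← sum_fiberwise univ π, e2, mul_inv, mul_comm (_⁻¹ : ℂ), mul_assoc, mul_sum]
  refine congrArg _ (sum_congr rfl fun a _ => ?_)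
  rw [av, mul_left_comm, mul_sum _ _ (F a)]
  exact congrArg _ (sum_congr rfl fun x hx => by rw [(mem_filter.1 hx).2, hφ])

theorem av_eq {π : G →* Q} (hπ : Function.Surjective π) {φ : G → ℂ} {a : Q} {c : ℂ}
    (h : ∀ x, π x = a → φ x = c) : av π φ a = c := by
  have e3 : (Nat.card π.ker : ℂ) ≠ 0 := by exact_mod_cast Nat.card_pos.ne'
  rw [av, sum_congr rfl (g := fun _ => c) fun x hx => h x (mem_filter.1 hx).2, sum_const,
    MonoidHom.card_fiber_eq_of_mem_range π (hπ a) ⟨1, map_one π⟩, inv_mul_eq_iff_eq_mul₀ e3]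
  simp [Fintype.card_subtype]

theorem av_inv {π : G →* Q} {φ : G → ℂ} (h : ∀ x, φ x⁻¹ = φ x) (a : Q) : av π φ a⁻¹ = av π φ a := by
  rw [av, av]
  exact congrArg _ (sum_equiv (Equiv.inv G) (fun x => by simp [inv_eq_iff_eq_inv]) fun x _ => (h x).symm)

theorem conj_fib {π : G →* Q} (hQ : ∀ a b : Q, a * b = b * a) {s : G}
    (h : ∀ x, π x = 1 → Commute x s → x = 1) {x : G} (hx : π x = π s) : ∃ o, x = o * s * o⁻¹ := by
  let k : π.ker → π.ker := fun o => ⟨o * s * o⁻¹ * s⁻¹, by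
    simp [MonoidHom.mem_ker, show π o = 1 from o.2]⟩
  have : Function.Injective k := fun a b e => by
    have e' : (a : G) * s * (a : G)⁻¹ = b * s * (b : G)⁻¹ := mul_right_cancel (congrArg Subtype.val e)
    have := h (b⁻¹ * a : π.ker) (b⁻¹ * a).2 (by
      change (b : G)⁻¹ * a * s = s * ((b : G)⁻¹ * a)
      rw [show (b : G)⁻¹ * a * s = (b : G)⁻¹ * (a * s * (a : G)⁻¹) * a by group, e']; group)
    exact Subtype.ext (inv_mul_eq_one.1 this).symm
  obtain ⟨o, e⟩ := Finite.surjective_of_injective this ⟨x * s⁻¹, by simp [MonoidHom.mem_ker, hx]⟩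
  exact ⟨o, (mul_right_cancel (congrArg Subtype.val e)).symm⟩

theorem small {I : Type*} [Fintype I] {t d : I → ℤ} (hd : ∀ x, 0 < d x) (h : ∑ x, t x * t x ≤ 4)
    (h1 : ∑ x, t x * d x = 0) (x : I) : -1 ≤ t x ∧ t x ≤ 1 := by
  by_contra k
  rw [← add_sum_erase _ _ (mem_univ x)] at h h1
  have k1 : 4 ≤ t x * t x := by rcases not_and_or.1 k with k | k <;> nlinarith
  have k2 := (sum_eq_zero_iff_of_nonneg fun y _ => mul_self_nonneg (t y)).1
    (le_antisymm (by linarith : ∑ y ∈ univ.erase x, t y * t y ≤ 0) (sum_nonneg fun y _ => mul_self_nonneg _))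
  rw [sum_eq_zero fun y hy => by rw [mul_self_eq_zero.1 (k2 y hy), zero_mul], add_zero,
    mul_eq_zero_iff_right (hd x).ne'] at h1
  simp [h1] at k1

theorem vc_prod {Θ : G → ℂ} {t : IrrCharacter G → ℤ} (h : VC Θ t) {z : G} (hz : z * z = 1)
    (hp : ∀ a b, IsConj z a → IsConj z b → Θ (a * b) = 0)
    {c : IrrCharacter G → ℤ} (hc : ∀ χ : IrrCharacter G, χ.1 z = dg χ - c χ) :
    ∑ χ, (t χ * (c χ ^ 2 / dg χ) : ℚ) = 0 := by
  have h1 : ∑ a with IsConj z a, ∑ b with IsConj z b, ∑ χ, t χ * χ.1 (a * b) = 0 :=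
    sum_eq_zero fun a ha => sum_eq_zero fun b hb => by
      rw [← hp a b (mem_filter.1 ha).2 (mem_filter.1 hb).2, expand h.cl]
      simp only [h.co]
  rw [sum_congr rfl fun a _ => sum_comm, sum_comm] at h1
  simp only [← mul_sum] at h1
  rw [sum_congr rfl fun χ _ => by rw [sum_inv χ.2, mul_left_comm, hc, dg_eq], ← mul_sum,
    mul_eq_zero_iff_left (pow_ne_zero _ (by
      exact_mod_cast card_ne_zero.2 ⟨z, mem_filter.2 ⟨mem_univ _, IsConj.refl z⟩⟩))] at h1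
  have h2 : ∑ χ, (t χ * ((dg χ - c χ) ^ 2 / dg χ) : ℚ) = 0 := by exact_mod_cast h1
  have h3 : ∑ χ, (t χ * dg χ : ℚ) = 0 := by exact_mod_cast h.deg
  have h4 : ∑ χ, (t χ * c χ : ℚ) = 0 := by exact_mod_cast h.inv hz hc
  rw [sum_congr rfl (g := fun χ => t χ * dg χ - 2 * (t χ * c χ) + (t χ * (c χ ^ 2 / dg χ) : ℚ))
    fun χ _ => by
      have : (dg χ : ℚ) ≠ 0 := by exact_mod_cast (dg_pos χ).ne'
      field_simp
      ring, sum_add_distrib, sum_sub_distrib, ← mul_sum, h3, h4] at h2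
  simpa using h2

end av

variable {G : Type u} [Group G] [Fintype G]

theorem smem (σ : A →* G) (a : A) : σ a ∈ Cu (σ (el 2 0)) := mem_Cu.2 ((Commute.all _ _).map σ)

/-- the section -/
def sc (σ : A →* G) : A →* Cu (σ (el 2 0)) := σ.codRestrict _ (smem σ)

/-- the setting -/
structure Dt (σ : A →* G) (π : Cu (σ (el 2 0)) →* A) (h : G) : Prop where
  sec : ∀ a, π (sc σ a) = a
  odd : Odd (Nat.card π.ker)
  cen : ∀ x, π x = 1 → Commute x (sc σ (el 0 2)) → x = 1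
  h1 : h * σ (el 1 0) * h⁻¹ = σ (el 0 1)
  h2 : h * σ (el 0 1) * h⁻¹ = σ (el 3 3)

variable {σ : A →* G} {π : Cu (σ (el 2 0)) →* A} {h : G}

theorem tt (σ : A →* G) : σ (el 2 0) * σ (el 2 0) = 1 := by
  rw [← map_mul, show el 2 0 * el 2 0 = 1 by decide, map_one]

namespace Dt

variable (k : Dt σ π h)
include k

theorem surj : Function.Surjective π := fun a => ⟨_, k.sec a⟩

theorem t1 : σ (el 2 0) ≠ 1 := fun e => by
  have := k.sec (el 2 0)
  rw [show sc σ (el 2 0) = 1 from Subtype.ext e, map_one] at this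
  exact absurd this (by decide)

theorem rot (i j : ZMod 4) : h * σ (el i j) * h⁻¹ = σ (el (-j) (i - j)) := by
  have e1 : ∀ i j : ZMod 4, el i j = el 1 0 ^ i.val * el 0 1 ^ j.val := by decide
  have e2 : ∀ i j : ZMod 4, el (-j) (i - j) = el 0 1 ^ i.val * el 3 3 ^ j.val := by decide
  rw [e2, map_mul, map_pow, map_pow, ← k.h1, ← k.h2, conj_pow, conj_pow, conj_mul, ← map_pow, ← map_pow,
    ← map_mul, ← e1]

theorem pw {x : Cu (σ (el 2 0))} (hx : π x * π x = el 2 0) :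
    (x : G) ^ (2 * Nat.card π.ker) = σ (el 2 0) := by
  obtain ⟨n, hn⟩ := k.odd
  have e : ∀ a : A, a ^ 4 = 1 := by decide
  have c : Commute x (sc σ (el 2 0)) := Subtype.ext (mem_Cu.1 x.2)
  have t2 : sc σ (el 2 0) * sc σ (el 2 0) = 1 := Subtype.ext (tt σ)
  have h1 : x ^ 2 * sc σ (el 2 0) ∈ π.ker := by
    rw [MonoidHom.mem_ker, map_mul, map_pow, sq, hx, k.sec]; decide
  have h2 := congrArg (fun y : π.ker => ((y : Cu (σ (el 2 0))) : G)) (pow_card_eq_one' (x := (⟨_, h1⟩ : π.ker)))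
  simp only [SubgroupClass.coe_pow, OneMemClass.coe_one, Subgroup.coe_mul] at h2
  change (_ * σ (el 2 0)) ^ _ = 1 at h2
  rw [Commute.mul_pow ((mem_Cu.1 x.2).pow_left 2), ← pow_mul] at h2
  nth_rw 2 [hn] at h2
  rw [pow_succ, pow_mul (σ _), sq, tt, one_pow, one_mul] at h2
  rw [eq_inv_of_mul_eq_one_left h2, inv_eq_of_mul_eq_one_right (tt σ)]

theorem th0 (j : ℕ) (c : Cu (σ (el 2 0))) (hc : ¬ 4 ∣ orderOf (c : G)) : f j (π c) = 0 := by
  by_contra e
  have h1 := k.pw (f_supp e)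
  have h2 : orderOf (c : G) ∣ 2 * (2 * Nat.card π.ker) := orderOf_dvd_of_pow_eq_one (by
    rw [mul_comm, pow_mul, h1, sq, tt])
  refine k.t1 (h1 ▸ orderOf_dvd_iff_pow_eq_one.1 ?_)
  rcases Nat.even_or_odd' (orderOf (c : G)) with ⟨m, hm | hm⟩
  · rw [hm] at h2 hc ⊢
    exact Nat.mul_dvd_mul_left 2 ((Nat.coprime_two_right.2 (Nat.not_even_iff_odd.1 fun ⟨r, hr⟩ =>
      hc ⟨r, by omega⟩)).dvd_of_dvd_mul_left (Nat.dvd_of_mul_dvd_mul_left two_pos h2))
  · exact (Nat.coprime_two_right.2 ⟨m, hm⟩).dvd_of_dvd_mul_left h2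

omit k in
theorem cl (j : ℕ) : IsClassFunction _ fun c => f j (π c) := fun g x => by simp [mul_comm]

theorem ti (j : ℕ) (a : Cu (σ (el 2 0))) (ha : f j (π a) ≠ 0) :
    indFun _ (fun c => f j (π c)) a = f j (π a) := by
  have h0 : (Nat.card (Cu (σ (el 2 0))) : ℂ) ≠ 0 := by exact_mod_cast Nat.card_pos.ne'
  rw [indFun, ← sum_filter_add_sum_filter_not univ (· ∈ Cu (σ (el 2 0))), sum_Cu (cl j),
    sum_eq_zero fun x hx => ?_, add_zero, inv_mul_cancel_left₀ h0]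
  by_cases e : x⁻¹ * a * x ∈ Cu (σ (el 2 0))
  swap; · exact extendByZero_not_mem _ _ e
  rw [extendByZero_mem _ _ e]
  by_contra e'
  have h1 := k.pw (f_supp e')
  have h2 := k.pw (f_supp ha)
  rw [show ((⟨_, e⟩ : Cu (σ (el 2 0))) : G) = x⁻¹ * a * x⁻¹⁻¹ by simp, conj_pow, h2, inv_inv] at h1
  exact (mem_filter.1 hx).2 (mem_Cu.2 (by
    rw [commute_iff_eq]; nth_rw 1 [← h1]; group))

theorem prod (j : ℕ) {a b : G} (ha : a * a = 1) (hb : b * b = 1) :
    indFun _ (fun c => f j (π c)) (a * b) = 0 := by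
  rw [indFun, sum_eq_zero fun x _ => ?_, mul_zero]
  by_cases e : x⁻¹ * (a * b) * x ∈ Cu (σ (el 2 0))
  swap; · exact extendByZero_not_mem _ _ e
  rw [extendByZero_mem _ _ e]
  by_contra e'
  have h1 := k.pw (f_supp e')
  have h2 : (x⁻¹ * a * x) * (x⁻¹ * (a * b) * x) * (x⁻¹ * a * x)⁻¹ = (x⁻¹ * (a * b) * x)⁻¹ := by
    rw [show (x⁻¹ * (a * b) * x)⁻¹ = x⁻¹ * (b⁻¹ * a⁻¹) * x by group, inv_eq_of_mul_eq_one_right hb,
      show x⁻¹ * a * x * (x⁻¹ * (a * b) * x) * (x⁻¹ * a * x)⁻¹ = x⁻¹ * (a * a * b * a⁻¹) * x by group, ha,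
      one_mul]
  have h3 : x⁻¹ * a * x ∈ Cu (σ (el 2 0)) := mem_Cu.2 (by
    have := congrArg (· ^ (2 * Nat.card π.ker)) h2
    simp only [conj_pow, inv_pow] at this
    rw [show x⁻¹ * (a * b) * x = ((⟨_, e⟩ : Cu (σ (el 2 0))) : G) from rfl, h1,
      inv_eq_of_mul_eq_one_right (tt σ), mul_inv_eq_iff_eq_mul] at this
    exact this)
  have h4 := congrArg π (show (⟨_, h3⟩ * ⟨_, e⟩ * ⟨_, h3⟩⁻¹ : Cu (σ (el 2 0))) = ⟨_, e⟩⁻¹ from
    Subtype.ext h2)
  rw [map_mul, map_mul, map_inv, map_inv, mul_inv_cancel_comm, ← mul_eq_one_iff_eq_inv, f_supp e'] at h4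
  exact absurd h4 (by decide)

theorem vc (j : ℕ) (hj : ∑ a, f j a * conj (f j a) = 64) :
    ∃ t, VC (indFun _ fun c => f j (π c)) t ∧ ∑ x, t x * t x = 4 ∧ ∀ χ,
      classInner (fun c => f j (π c)) (fun c : Cu (σ (el 2 0)) => χ.1 c) = t χ := by
  have : ∀ χ : IrrCharacter G, ∃ n : ℤ,
      classInner (fun c => f j (π c)) (fun c : Cu (σ (el 2 0)) => χ.1 c) = n := fun χ => by
    have := fun i l => ch_inner (ch_twist ch_one ((L i l).comp π))
      (ch_comp (ch_irr χ.2) (Cu (σ (el 2 0))).subtype)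
    obtain ⟨a, ha⟩ := this 0 j
    obtain ⟨b, hb⟩ := this 2 j
    obtain ⟨c, hc⟩ := this 0 (j + 2)
    obtain ⟨d, hd⟩ := this 2 (j + 2)
    refine ⟨a - b + c - d, ?_⟩
    push_cast
    rw [← ha, ← hb, ← hc, ← hd, ← classInner_sub_left, ← classInner_add_left, ← classInner_sub_left]
    congr 1
    funext x
    simp [f_eq]
  choose t ht using this
  have v : VC (indFun _ fun c => f j (π c)) t := ⟨indFun_class _ _,
    fun χ => by rw [classInner_indFun _ _ (irr_class χ.2)]; exact ht χ, fun g hg => ind_zero (k.th0 j) hg⟩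
  refine ⟨t, v, ?_, ht⟩
  have := v.inner v
  have e2 : (Nat.card (Cu (σ (el 2 0))) : ℂ) = Nat.card π.ker * 16 := by
    simpa only [sum_const, card_univ, nsmul_eq_mul, mul_one, ← Nat.card_eq_fintype_card, cardA] using
      sum_fiber π k.surj fun _ => 1
  have e3 : (Nat.card π.ker : ℂ) ≠ 0 := by exact_mod_cast Nat.card_pos.ne'
  rw [classInner_indFun _ _ (indFun_class _ _), classInner, sum_congr rfl
    (g := fun c => f j (π c) * conj (f j (π c))) (fun c _ => by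
      by_cases e : f j (π c) = 0
      · simp [e]
      · rw [k.ti j c e]), sum_fiber π k.surj fun a => f j a * conj (f j a), hj, e2] at this
  field_simp at this
  exact_mod_cast (show ((∑ x, t x * t x : ℤ) : ℂ) = 4 by linear_combination -this / 16)

theorem fib (χ : IrrCharacter G) (a : A) (ha : ∃ m l : Fin 3, el 0 2 = a ^ m.val * el 2 0 ^ l.val) :
    av π (fun c => χ.1 c) a = χ.1 (σ a) := av_eq k.surj fun x hx => by
  obtain ⟨m, l, e⟩ := ha
  obtain ⟨o, rfl⟩ := conj_fib mul_comm (s := sc σ a) (fun y h1 h2 => k.cen y h1 (by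
    rw [e, map_mul, map_pow, map_pow]
    exact (h2.pow_right _).mul_right (Commute.pow_right (Subtype.ext (mem_Cu.1 y.2).eq) _)))
    (hx.trans (k.sec a).symm)
  exact irr_class χ.2 _ _

omit k in
theorem alg {X ψ : A → ℂ} {d c ν : ℤ} (r : ∀ i j, X (el (-j) (i - j)) = X (el i j))
    (r' : ∀ a, X a⁻¹ = X a) (s' : ∀ a, ψ a⁻¹ = ψ a)
    (fb : ∀ a, (∃ m l : Fin 3, el 0 2 = a ^ m.val * el 2 0 ^ l.val) → ψ a = X a)
    (a00 : X (el 0 0) = d) (hc : X (el 2 0) = d - c)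
    (T : ∀ i l, ∃ n : ℕ, (16 : ℂ)⁻¹ * ∑ a, L i l a * X a = n)
    (H : ∀ i l, ∃ n : ℕ, (16 : ℂ)⁻¹ * ∑ a, L i l a * ψ a = n)
    (h0 : (16 : ℂ)⁻¹ * ∑ a, f 0 a * ψ a = -1) (h1 : (16 : ℂ)⁻¹ * ∑ a, f 1 a * ψ a = ν)
    (hν : -1 ≤ ν ∧ ν ≤ 1) : d % 4 = 3 := by
  have a02 : X (el 0 2) = d - c := (r 2 0).trans hc
  have a22 : X (el 2 2) = d - c := (r 0 2).trans a02
  have a01 : X (el 0 1) = X (el 1 0) := r 1 0
  have a33 : X (el 3 3) = X (el 1 0) := (r 0 1).trans a01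
  have a30 : X (el 3 0) = X (el 1 0) := r' (el 1 0)
  have a03 : X (el 0 3) = X (el 1 0) := (r' (el 0 1)).trans a01
  have a11 : X (el 1 1) = X (el 1 0) := (r' (el 3 3)).trans a33
  have a23 : X (el 2 3) = X (el 1 2) := r 1 2
  have a13 : X (el 1 3) = X (el 1 2) := (r 2 3).trans a23
  have a32 : X (el 3 2) = X (el 1 2) := r' (el 1 2)
  have a21 : X (el 2 1) = X (el 1 2) := (r' (el 2 3)).trans a23
  have a31 : X (el 3 1) = X (el 1 2) := (r' (el 1 3)).trans a13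
  have b30 : ψ (el 3 0) = ψ (el 1 0) := s' (el 1 0)
  have b32 : ψ (el 3 2) = ψ (el 1 2) := s' (el 1 2)
  obtain ⟨n1, e1⟩ := T 0 0
  obtain ⟨n2, e2⟩ := T 2 0
  obtain ⟨n3, e3⟩ := T 1 0
  obtain ⟨n4, e4⟩ := T 1 2
  obtain ⟨p1, e5⟩ := H 0 0
  obtain ⟨p2, e6⟩ := H 2 0
  obtain ⟨p4, e7⟩ := H 0 1
  have f01 := fb (el 0 1) (by decide)
  have f02 := fb (el 0 2) (by decide)
  have f03 := fb (el 0 3) (by decide)
  have f11 := fb (el 1 1) (by decide)
  have f13 := fb (el 1 3) (by decide)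
  have f21 := fb (el 2 1) (by decide)
  have f22 := fb (el 2 2) (by decide)
  have f23 := fb (el 2 3) (by decide)
  have f31 := fb (el 3 1) (by decide)
  have f33 := fb (el 3 3) (by decide)
  simp only [sumA, f, L_el, v0, v1, v2, v3, f01, f02, f03, f11, f13, f21, f22, f23, f31, f33, b30, b32,
    a00, a02, a22, a01, a33, a30, a03, a11, a23, a13, a32, a21, a31, hc, pow_zero, pow_one, one_pow,
    Complex.I_sq, I3, m2, m3] at e1 e2 e3 e4 e5 e6 e7 h0 h1
  have k1 : (-1 + (n1 - n2) : ℤ) = 2 * (p1 - p2) := by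
    exact_mod_cast (show (-1 + (n1 - n2) : ℂ) = 2 * (p1 - p2) by
      linear_combination 2 * e5 - 2 * e6 - h0 - e1 + e2)
  have k2 : (d + 3 * (d - c) : ℤ) = 16 * n2 + 4 * (n1 - n2) := by
    exact_mod_cast (show (d + 3 * (d - c) : ℂ) = 16 * n2 + 4 * (n1 - n2) by
      linear_combination 12 * e2 + 4 * e1)
  have k3 : c = 8 * (n3 + n4) := by
    exact_mod_cast (show (c : ℂ) = 8 * (n3 + n4) by linear_combination 8 * e3 + 8 * e4)
  have k4 : (-1 - (d - c) + ν : ℤ) = 4 * (p4 - p2) := by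
    exact_mod_cast (show (-1 - (d - c) + ν : ℂ) = 4 * (p4 - p2) by
      linear_combination 4 * e7 - 4 * e6 - h0 - h1)
  omega

theorem md (χ : IrrCharacter G) (hr : bar χ = χ) {c ν : ℤ} (hc : χ.1 (σ (el 2 0)) = dg χ - c)
    (h0 : classInner (fun c => f 0 (π c)) (fun c : Cu (σ (el 2 0)) => χ.1 c) = -1)
    (h1 : classInner (fun c => f 1 (π c)) (fun c : Cu (σ (el 2 0)) => χ.1 c) = ν)
    (hν : -1 ≤ ν ∧ ν ≤ 1) : dg χ % 4 = 3 := by
  have re : ∀ x, conj (χ.1 x) = χ.1 x := congrFun (congrArg Subtype.val hr)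
  have iv : ∀ x, χ.1 x⁻¹ = χ.1 x := fun x => by
    obtain ⟨n, ρ, -, e⟩ := χ.2
    rw [← re x, ← e, char_inv]
  rw [inner_av k.surj _ (fun x => re _), cardA] at h0 h1
  refine alg (X := fun a => χ.1 (σ a)) (ψ := av π fun c => χ.1 c) (fun i j => by rw [← k.rot, irr_class χ.2])
    (fun a => by rw [map_inv, iv]) (av_inv fun x => iv x) (k.fib χ)
    (by rw [show el 0 0 = 1 from rfl, map_one, dg_eq]) hc (fun i l => ?_) (fun i l => ?_) h0 h1 hν
  · simpa only [classInner, re, cardA, mul_one] using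
      ch_inner (ch_twist ch_one (L i l)) (ch_comp (ch_irr χ.2) σ)
  · obtain ⟨n, e⟩ := ch_inner (ch_twist ch_one ((L i l).comp π))
      (ch_comp (ch_irr χ.2) (Cu (σ (el 2 0))).subtype)
    refine ⟨n, ?_⟩
    rw [← e, ← cardA, ← inner_av k.surj (fun a => L i l a) fun x => re _]
    simp

theorem tg : Tg (σ (el 2 0)) := by
  by_contra hn
  obtain ⟨t, h1, h3, ht⟩ := k.vc 0 (by simp [sumA, f, L_el, v0, v1, v2, v3, m2, m3]; norm_num)
  obtain ⟨s, s1, s3, hs⟩ := k.vc 1 (by simp [sumA, f, L_el, v0, v1, v2, v3, m2, m3]; norm_num)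
  obtain ⟨c, hc⟩ := exists_c (tt σ)
  have h2 : t (tr G) = 1 := by
    have := ht (tr G)
    rw [inner_av k.surj _ (fun x => by simp [tr]), cardA] at this
    simp only [av_eq k.surj (φ := fun c : Cu (σ (el 2 0)) => (tr G).1 c) (c := 1) fun _ _ => rfl] at this
    simp [sumA, f, L_el, v0, v1, v2, v3, m2, m3] at this
    exact_mod_cast (show (t (tr G) : ℂ) = 1 by linear_combination -this)
  have h0 : ∀ a, IsConj (σ (el 2 0)) a → a * a = 1 := fun a ha => by
    obtain ⟨g, rfl⟩ := isConj_iff.1 ha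
    rw [conj_mul, tt]; simp
  have z : ∀ x, x ≠ tr G → c x ≠ 0 := fun χ h2 h3 =>
    hn (tg_irr (tt σ) χ.2 (fun e => h2 (Subtype.ext e)) (by rw [hc, h3, dg_eq]; simp))
  obtain ⟨a, b, e, n1, n2, n3, n4, n5, n6, ta, tb, te, t0, hE⟩ := (BS.shape (tr G) t dg c dg_pos dg_tr (by
      have := hc (tr G)
      rw [dg_tr, show (tr G).1 (σ (el 2 0)) = 1 from rfl] at this
      exact_mod_cast (show (c (tr G) : ℂ) = 0 by push_cast at this; linear_combination this))
    h2 h3.le h1.deg (h1.inv (tt σ) hc)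
    (vc_prod h1 (tt σ) (fun a b ha hb => k.prod 0 (h0 a ha) (h0 b hb)) hc)).resolve_left
    fun ⟨x, a, b⟩ => z x a b
  have cb := z b n2
  have hne : ¬ (dg b = dg e ∧ c b = c e) := fun h => by
    rw [← h.1, ← h.2] at hE
    have := mul_pos (sq_pos_of_ne_zero cb) (dg_pos b)
    linarith
  have hre : ∀ a, conj (f 0 a) = f 0 a := fun a => by
    obtain ⟨i, l, rfl⟩ : ∃ i l, a = el i l := ⟨_, _, rfl⟩
    simp [f, L_el]
  have tbar : ∀ χ, t (bar χ) = t χ := fun χ => by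
    have := classInner_bar (fun c => f 0 (π c)) fun c : Cu (σ (el 2 0)) => χ.1 c
    rw [ht, map_intCast, funext fun c => hre (π c)] at this
    exact_mod_cast (ht (bar χ)).symm.trans this
  have cbar : ∀ χ, c (bar χ) = c χ := fun χ => by
    have := hc (bar χ)
    rw [show (bar χ).1 (σ (el 2 0)) = conj (χ.1 (σ (el 2 0))) from rfl, hc, map_sub, map_intCast,
      map_intCast, dg_bar, sub_right_inj] at this
    exact_mod_cast this.symm
  have t2 : ∀ x, t x = -1 → x = b ∨ x = e := fun x hx => by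
    by_contra! h
    have := t0 x (by rintro rfl; omega) (by rintro rfl; omega) h.1 h.2
    omega
  have rb : bar b = b := (t2 _ (by rw [tbar, tb])).resolve_right fun h => hne (by
    rw [← h, dg_bar, cbar]; exact ⟨rfl, rfl⟩)
  have re : bar e = e := (t2 _ (by rw [tbar, te])).resolve_left fun h => hne (by
    rw [← h, dg_bar, cbar]; exact ⟨rfl, rfl⟩)
  exact cb (arith1 (k.md b rb (hc b) (by rw [ht, tb]; simp) (hs b) (small dg_pos s3.le s1.deg b))
    (k.md e re (hc e) (by rw [ht, te]; simp) (hs e) (small dg_pos s3.le s1.deg e)) _ _ _ le_rfl hE)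

end Dt

end Cfsg.Agent.H4.H44
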